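import Cfsg.Agent.Lib.Helper11.HeM.K0

set_option autoImplicit false
set_option maxRecDepth 100000

namespace Cfsg.Agent.Lib.Helper11.HeM

theorem chkAll : ∀ j < 236, blk fc sc rt.get INV isH j = true :=
  guardB_spec (D := 8) (allR_join (allR_join b0 b1 (by norm_num)) (allR_join b2 b3 (by norm_num)) (by norm_num)) (by norm_num)

theorem clAll : ∀ jb < 261, cblk fc nc cc (256 * 236) 8330 139984046386112763159840142535527767382602843577165595931249318810236991948760059086304843329475444736 gens jb = true :=
  guardB_spec (D := 9) (allR_join (allR_join c0 c1 (by norm_num)) (allR_join c2 c3 (by norm_num)) (by norm_num)) (by norm_num)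

theorem hN0 : getN nc 0 = 0 := by decide +kernel


end Cfsg.Agent.Lib.Helper11.HeM
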