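import Cfsg.Agent.Lib.Helper11.HeM.Top

set_option autoImplicit false
set_option maxRecDepth 100000

namespace Cfsg.Agent.Lib.Helper11.HeM

set_option maxHeartbeats 0
theorem b0 : allR (guardB 236 (blk fc sc rt.get INV isH)) 6 0 = true := by decide +kernel
theorem b1 : allR (guardB 236 (blk fc sc rt.get INV isH)) 6 64 = true := by decide +kernel
theorem b2 : allR (guardB 236 (blk fc sc rt.get INV isH)) 6 128 = true := by decide +kernel
theorem b3 : allR (guardB 236 (blk fc sc rt.get INV isH)) 6 192 = true := by decide +kernel
theorem c0 : allR (guardB 261 (cblk fc nc cc 60416 8330 139984046386112763159840142535527767382602843577165595931249318810236991948760059086304843329475444736 gens)) 7 0 = true := by decide +kernel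
theorem c1 : allR (guardB 261 (cblk fc nc cc 60416 8330 139984046386112763159840142535527767382602843577165595931249318810236991948760059086304843329475444736 gens)) 7 128 = true := by decide +kernel
theorem c2 : allR (guardB 261 (cblk fc nc cc 60416 8330 139984046386112763159840142535527767382602843577165595931249318810236991948760059086304843329475444736 gens)) 7 256 = true := by decide +kernel
theorem c3 : allR (guardB 261 (cblk fc nc cc 60416 8330 139984046386112763159840142535527767382602843577165595931249318810236991948760059086304843329475444736 gens)) 7 384 = true := by decide +kernel

end Cfsg.Agent.Lib.Helper11.HeM
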