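import Cfsg.Agent.Lib.Helper11.HeM.All
import Cfsg.Prelude.Def_Spor_He

set_option autoImplicit false
set_option maxRecDepth 100000

namespace Cfsg.Agent.Lib.Helper11.HeM

open Cfsg.Spor Cfsg.Spor.He

def LTF : List (FreeGroup Gen) := [1, a, b, c, d, e, f, g, ((b * a) * b), (((b * a) * b))⁻¹, (((((((((((((((((((((b * c) * d) * e) * f) * d) * c) * b) * d) * c) * d) * c) * b) * e) * d) * c) * d) * e) * f) * d) * c) * b), ((((((((((((((((((((((b * c) * d) * e) * f) * d) * c) * b) * d) * c) * d) * c) * b) * e) * d) * c) * d) * e) * f) * d) * c) * b))⁻¹]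
def code : Gen → ℕ
  | .a => 1 | .b => 2 | .c => 3 | .d => 4 | .e => 5 | .f => 6 | .g => 7
def nodes : List Gen := [.a, .b, .c, .d, .e, .f, .g]
def extraE : List WExp := [
  .mul (.l 5) (.inv (.pow (.mul (.l 6) (.l 7)) 2)),
  .mul (.l 5) (.inv (.pow (.mul (.mul (.l 1) (.l 2)) (.l 3)) 3)),
  .mul (.l 1) (.inv (.pow (.mul (.l 3) (.l 4)) 5)),
  .pow (.mul (.mul (.mul (.l 3) (.l 4)) (.l 6)) (.l 7)) 4 ]
def hE : List (WExp × ℕ) := [((.mul (.mul (.l 2) (.l 1)) (.l 2)), 8), ((.mul (.mul (.mul (.mul (.mul (.mul (.mul (.mul (.mul (.mul (.mul (.mul (.mul (.mul (.mul (.mul (.mul (.mul (.mul (.mul (.mul (.l 2) (.l 3)) (.l 4)) (.l 5)) (.l 6)) (.l 4)) (.l 3)) (.l 2)) (.l 4)) (.l 3)) (.l 4)) (.l 3)) (.l 2)) (.l 5)) (.l 4)) (.l 3)) (.l 4)) (.l 5)) (.l 6)) (.l 4)) (.l 3)) (.l 2)), 10)]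

theorem rtok : rt.ok (baseWords edges code nodes INV 7 extraE hE) = true := by decide +kernel

theorem invol (x : Gen) (hx : x ∈ coxNodes edges) :
    (PresentedGroup.mk (coxRelators edges ∪ {r | r ∈ extra})) (FreeGroup.of x) =
      ((PresentedGroup.mk (coxRelators edges ∪ {r | r ∈ extra})) (FreeGroup.of x))⁻¹ := by
  have h := cox_rel edges extra x x hx hx
  have h1 : coxLabel edges x x = 1 := by simp [coxLabel]
  rw [h1, pow_one] at h
  exact eq_inv_of_mul_eq_one_left h

theorem hone : (PresentedGroup.mk (coxRelators edges ∪ {r | r ∈ extra})) 1 =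
    ((PresentedGroup.mk (coxRelators edges ∪ {r | r ∈ extra})) 1)⁻¹ := by simp

theorem hii (x : FreeGroup Gen) : (PresentedGroup.mk (coxRelators edges ∪ {r | r ∈ extra})) x =
    ((PresentedGroup.mk (coxRelators edges ∪ {r | r ∈ extra})) x⁻¹)⁻¹ := by rw [map_inv, inv_inv]

theorem hinv32 : ∀ l < 32, (PresentedGroup.mk (coxRelators edges ∪ {r | r ∈ extra}))
        (LTF.getD (invL INV l) 1) =
      ((PresentedGroup.mk (coxRelators edges ∪ {r | r ∈ extra})) (LTF.getD l 1))⁻¹ := by
  intro l hl
  interval_cases l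
  · exact hone
  · exact invol _ (by decide)
  · exact invol _ (by decide)
  · exact invol _ (by decide)
  · exact invol _ (by decide)
  · exact invol _ (by decide)
  · exact invol _ (by decide)
  · exact invol _ (by decide)
  · exact map_inv _ _
  · exact hii _
  · exact map_inv _ _
  · exact hii _
  · exact hone
  · exact hone
  · exact hone
  · exact hone
  · exact hone
  · exact hone
  · exact hone
  · exact hone
  · exact hone
  · exact hone
  · exact hone
  · exact hone
  · exact hone
  · exact hone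
  · exact hone
  · exact hone
  · exact hone
  · exact hone
  · exact hone
  · exact hone

theorem upper : ((Subgroup.closure ({a, c, d, e, f, g, ((b * a) * b), (((((((((((((((((((((b * c) * d) * e) * f) * d) * c) * b) * d) * c) * d) * c) * b) * e) * d) * c) * d) * e) * f) * d) * c) * b)} : Set (FreeGroup Gen))).map
      (PresentedGroup.mk (coxRelators edges ∪ {r | r ∈ extra}))).index ≠ 0 ∧
    ((Subgroup.closure ({a, c, d, e, f, g, ((b * a) * b), (((((((((((((((((((((b * c) * d) * e) * f) * d) * c) * b) * d) * c) * d) * c) * b) * e) * d) * c) * d) * e) * f) * d) * c) * b)} : Set (FreeGroup Gen))).map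
      (PresentedGroup.mk (coxRelators edges ∪ {r | r ∈ extra}))).index ≤ 8330 := by
  apply cox_index_le edges extra _ LTF code nodes INV 7 extraE hE rt fc sc nc cc isH gens
    236 261 8330 _ rfl (by decide) (by decide +kernel) hinv32 (by decide) _ _ _ _ _ rtok
    (by norm_num) (by norm_num) hN0 (by decide) chkAll clAll
  · intro x _
    cases x <;> rfl
  · intro e he
    have : extraE.map (fun e => e.eval (fun l => LTF.getD l 1)) = extra := rfl
    rw [← this]
    exact List.mem_map_of_mem he
  · intro p hp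
    have : hE.map (fun p => LTF.getD p.2 1) = hE.map (fun p => p.1.eval (fun l => LTF.getD l 1)) := rfl
    exact List.map_inj_left.1 this p hp
  · intro x
    refine ⟨code x, ?_, ?_⟩ <;> cases x <;> first | rfl | decide
  · intro l hl
    simp only [isH, decide_eq_true_eq, List.mem_cons, List.mem_nil_iff, or_false] at hl
    rcases hl with rfl | rfl | rfl | rfl | rfl | rfl | rfl | rfl <;>
      exact Subgroup.subset_closure (by simp [LTF])


end Cfsg.Agent.Lib.Helper11.HeM
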